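import Cfsg.Agent.Lib.Helper35.Suz1782.Data

namespace Cfsg.Agent.Lib.Helper35.Suz1782

open Cfsg.Agent.Lib.Helper35

theorem col0 : allSlots (chkSlot par tA0 je0 pe 8 255 8 (deadF par tA7) (fun _ => 8246) tree0 0) 8246 = true := by decide +kernel
theorem col1 : allSlots (chkSlot par tA1 je1 pe 8 255 8 (deadF par tA7) (fun _ => 8246) tree1 1) 8246 = true := by decide +kernel
theorem col2 : allSlots (chkSlot par tA2 je2 pe 8 255 8 (deadF par tA7) (fun _ => 8246) tree2 2) 8246 = true := by decide +kernel
theorem col3 : allSlots (chkSlot par tA3 je3 pe 8 255 8 (deadF par tA7) (fun _ => 8246) tree3 3) 8246 = true := by decide +kernel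
theorem col4 : allSlots (chkSlot par tA4 je4 pe 8 255 8 (deadF par tA7) (fun _ => 8246) tree4 4) 8246 = true := by decide +kernel
theorem col5 : allSlots (chkSlot par tA5 je5 pe 8 255 8 (deadF par tA7) (fun _ => 8246) tree5 5) 8246 = true := by decide +kernel
theorem col6 : allSlots (chkSlot par tA6 je6 pe 8 255 8 (deadF par tA7) (fun _ => 8246) tree6 6) 8246 = true := by decide +kernel
theorem col7 : allSlots (chkSlot par tA7 je7 pe 8 255 8 (fun _ => true) (fun v => Nat.pred v) tree7 7) 8246 = true := by decide +kernel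
theorem cnt : countSlots (liveF par tA7) 8246 = 1782 := by decide +kernel
theorem tchk0 : treeChk PresSuz.cc.inv 7 (fullBases 7 PresSuz.cc.inv PresSuz.R) (fullSub PresSuz.cc.inv S) 0 tree0 = true := by decide +kernel
theorem tchk1 : treeChk PresSuz.cc.inv 7 (fullBases 7 PresSuz.cc.inv PresSuz.R) (fullSub PresSuz.cc.inv S) 1 tree1 = true := by decide +kernel
theorem tchk2 : treeChk PresSuz.cc.inv 7 (fullBases 7 PresSuz.cc.inv PresSuz.R) (fullSub PresSuz.cc.inv S) 2 tree2 = true := by decide +kernel
theorem tchk3 : treeChk PresSuz.cc.inv 7 (fullBases 7 PresSuz.cc.inv PresSuz.R) (fullSub PresSuz.cc.inv S) 3 tree3 = true := by decide +kernel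
theorem tchk4 : treeChk PresSuz.cc.inv 7 (fullBases 7 PresSuz.cc.inv PresSuz.R) (fullSub PresSuz.cc.inv S) 4 tree4 = true := by decide +kernel
theorem tchk5 : treeChk PresSuz.cc.inv 7 (fullBases 7 PresSuz.cc.inv PresSuz.R) (fullSub PresSuz.cc.inv S) 5 tree5 = true := by decide +kernel
theorem tchk6 : treeChk PresSuz.cc.inv 7 (fullBases 7 PresSuz.cc.inv PresSuz.R) (fullSub PresSuz.cc.inv S) 6 tree6 = true := by decide +kernel
theorem tchk7 : treeChk PresSuz.cc.inv 7 (fullBases 7 PresSuz.cc.inv PresSuz.R) (fullSub PresSuz.cc.inv S) 7 tree7 = true := by decide +kernel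

noncomputable def certData : CertData PresSuz.cc.C PresSuz.cc.inv PresSuz.R S 1782 where
  P := par
  hP := ⟨by decide +kernel, by decide +kernel, by decide +kernel, by decide +kernel, by decide +kernel⟩
  tabs := tabs
  N := 8246
  trees := trees
  je := je
  pe := pe
  rb := 8
  mR := 255
  cK := 8
  hcK := by decide +kernel
  htree := by
    intro l hl
    have hl' : l ≤ 7 := hl
    interval_cases l
    exacts [tchk0, tchk1, tchk2, tchk3, tchk4, tchk5, tchk6, tchk7]
  hN := by decide +kernel
  hN1 := by decide +kernel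
  hlo := by
    intro l hl
    have hl' : l ≤ 7 := hl
    interval_cases l <;> decide +kernel
  hhi := by
    intro l hl
    have hl' : l ≤ 7 := hl
    interval_cases l <;> decide +kernel
  hz := by
    intro l hl
    have hl' : 7 < l := hl
    obtain ⟨k, rfl⟩ : ∃ k, l = k + 8 := ⟨l - 8, by omega⟩
    rfl
  hcol := by
    intro l hl
    have hl' : l < 7 := hl
    interval_cases l
    exacts [col0, col1, col2, col3, col4, col5, col6]
  heps := col7
  hcount := cnt

end Cfsg.Agent.Lib.Helper35.Suz1782
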